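import Cfsg.Agent.H21.PG.Types
import Cfsg.Agent.H478.CC.DDefs
import Cfsg.Agent.H587.KB8.Geo

/-!
# S4884, block G, row oplus: the `q`-elements (helper187)

* `hyp n F`      : the `n + 2` hyperbolic pairs of `Qp n F`;
* `ti_eq`        : `TI (HO (Qp n F)) = AdmQ` if `2 ≠ 0`;
* `exists_isom`  : an isometry of order `q` from `q ∣ |PΩ⁺|`;
* `qelt_of_core` : `CoreB` implies `QElt AdmQ (E (Qp n F)).subtype q (n + 2)`.
-/

set_option autoImplicit false

namespace Cfsg.Agent.H187.PG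

open Cfsg Cfsg.Agent.LieClassical Cfsg.Agent.LieClassical.OrthForms QuadraticMap Module
open Cfsg.Agent.LieClassical.OrthCore Cfsg.Agent.LieClassical.OrthTrans
open Cfsg.Agent.LieClassical.OrthSimple Cfsg.Agent.LieClassical.OrthFinite
open Cfsg.Agent.TitsThree.KSideO Cfsg.Agent.TitsThree.Siegel
open Cfsg.Agent.H439.CC Cfsg.Agent.H478.CC Cfsg.Agent.H21.PG

universe u

variable {F : Type u} [Field F] {n : ℕ}

/-- the hyperbolic pairs -/
def hyp (n : ℕ) (F : Type u) [Field F] : Hyp (HO (Qp n F)) (n + 2) where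
  u i := Pi.single (Sum.inl i) 1
  w i := Pi.single (Sum.inr i) 1
  uu i j := by
    rw [HO_h, polar_plusForm]
    simp [Pi.single_apply]
  ww i j := by
    rw [HO_h, polar_plusForm]
    simp [Pi.single_apply]
  uw i j := by
    rw [HO_h, polar_plusForm]
    simp [Pi.single_apply, eq_comm]
  ani v hu hw _ := by
    funext s
    rcases s with i | i
    · have h1 := hw i
      rw [HO_h, polar_plusForm] at h1
      simpa [Pi.single_apply] using h1
    · have h1 := hu i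
      rw [HO_h, polar_plusForm] at h1
      simpa [Pi.single_apply] using h1

theorem polar_self' (Q : QuadraticForm F (Fin (n + 2) ⊕ Fin (n + 2) → F)) (v : Fin (n + 2) ⊕ Fin (n + 2) → F) :
    polar Q v v = 2 * Q v := by
  rw [QuadraticMap.polar_self, nsmul_eq_mul, Nat.cast_ofNat]

/-- totally isotropic is totally singular -/
theorem ti_iff (h2 : (2 : F) ≠ 0) (U : Submodule F (Fin (n + 2) ⊕ Fin (n + 2) → F)) :
    TI (HO (Qp n F)) U ↔ AdmQ U := by
  constructor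
  · intro h v hv
    have h1 := h v hv v hv
    rw [HO_h, polar_self'] at h1
    exact (mul_eq_zero.1 h1).resolve_left h2
  · intro h v hv w hw
    rw [HO_h]
    unfold polar
    rw [h _ (U.add_mem hv hw), h v hv, h w hw, sub_zero, sub_zero]

theorem ti_eq (h2 : (2 : F) ≠ 0) : TI (HO (Qp n F)) = AdmQ (n := n) (F := F) :=
  funext fun U => propext (ti_iff h2 U)

/-- isometries of the polar form -/
theorem isom_iff (h2 : (2 : F) ≠ 0) (x : (Fin (n + 2) ⊕ Fin (n + 2) → F) ≃ₗ[F] (Fin (n + 2) ⊕ Fin (n + 2) → F)) :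
    H21.PG.Isom (HO (Qp n F)) x ↔ x ∈ O (Qp n F) := by
  rw [mem_O]
  constructor
  · intro h v
    have h1 := h v v
    rw [HO_h, HO_h, polar_self', polar_self'] at h1
    exact mul_left_cancel₀ h2 h1
  · intro h v w
    rw [HO_h, HO_h]
    unfold polar
    rw [← map_add, h, h, h]

/-- `Ω` is finite -/
theorem finite_E [Finite F] : Finite ↥(E (Qp n F)) := by
  have : Finite ((Fin (n + 2) ⊕ Fin (n + 2) → F) ≃ₗ[F] (Fin (n + 2) ⊕ Fin (n + 2) → F)) :=
    Finite.of_injective (fun g : (Fin (n + 2) ⊕ Fin (n + 2) → F) ≃ₗ[F] (Fin (n + 2) ⊕ Fin (n + 2) → F) =>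
      (g : (Fin (n + 2) ⊕ Fin (n + 2) → F) → (Fin (n + 2) ⊕ Fin (n + 2) → F))) DFunLike.coe_injective
  infer_instance

/-- an isometry of order `q` -/
theorem exists_isom [Finite F] (h2 : (2 : F) ≠ 0) (hG : Good (Qp n F)) (q : ℕ) [hq : Fact q.Prime]
    (hS : q ∣ Nat.card (Cfsg.POmega F ⇑(Qp n F))) :
    ∃ x : (Fin (n + 2) ⊕ Fin (n + 2) → F) ≃ₗ[F] (Fin (n + 2) ⊕ Fin (n + 2) → F),
      H21.PG.Isom (HO (Qp n F)) x ∧ x ^ q = 1 ∧ x ≠ 1 := by
  have := finite_E (F := F) (n := n)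
  have h1 : q ∣ Nat.card ↥(E (Qp n F)) := hS.trans (Subgroup.card_dvd_of_surjective _ (toPOmega_surjective hG))
  obtain ⟨g, hg⟩ := exists_prime_orderOf_dvd_card' q h1
  refine ⟨g.1, (isom_iff h2 _).2 (E_le_O g.2), ?_, fun h => ?_⟩
  · have h3 := pow_orderOf_eq_one g
    rw [hg] at h3
    exact congrArg Subtype.val h3
  · have h3 : g = 1 := Subtype.ext h
    rw [h3, orderOf_one] at hg
    exact hq.out.one_lt.ne hg

/-- **QElt for `PΩ⁺_{2(n+2)}(F)`** from the core -/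
theorem qelt_of_core (hB : CoreB.{u, u}) [Finite F] (h2 : (2 : F) ≠ 0) (hG : Good (Qp n F)) (q : ℕ)
    [hq : Fact q.Prime] (hq2 : q ≠ 2) (hqF : (q : F) ≠ 0) (hS : q ∣ Nat.card (Cfsg.POmega F ⇑(Qp n F))) :
    QElt (AdmQ (n := n) (F := F)) (E (Qp n F)).subtype q (n + 2) := by
  have hfr : finrank F (Fin (n + 2) ⊕ Fin (n + 2) → F) ≤ 2 * (n + 2) + 2 := by
    rw [Module.finrank_fintype_fun_eq_card, Fintype.card_sum, Fintype.card_fin]
    omega
  obtain ⟨x₁, x₂, h1, h2', hx1, hx2, hc, hPF⟩ := hB F (Fin (n + 2) ⊕ Fin (n + 2) → F) (HO (Qp n F)) q (n + 2) hq2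
    (hyp n F) (fun a => rfl) h2 hqF (by omega) hfr (exists_isom h2 hG q hS)
  rw [ti_eq h2] at hPF
  have hodd : Odd q := hq.out.odd_of_ne_two hq2
  have hm1 : x₁ ∈ E (Qp n F) := H587.KB8.mem_E_of_odd hG ((isom_iff h2 _).1 h1) hodd hx1
  have hm2 : x₂ ∈ E (Qp n F) := H587.KB8.mem_E_of_odd hG ((isom_iff h2 _).1 h2') hodd hx2
  exact qelt_of (E (Qp n F)).subtype ⟨x₁, hm1⟩ ⟨x₂, hm2⟩ (Subtype.ext hx1) (Subtype.ext hx2) (Subtype.ext hc) hPF

end Cfsg.Agent.H187.PG
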